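import Cfsg.Agent.Lib.Helper32.KSLocal

/-! `ParQ`: the local API of `KSLocal.Par` (helper32) with `S₃` replaced by a group of order `2q`,
`q` an odd prime (port of helper32's proofs). -/

set_option autoImplicit false
open Cfsg Subgroup Cfsg.Agent.Lib.Helper47 Cfsg.Agent.Lib.Helper32.KSLocal

namespace Cfsg.Agent.Lib.Helper55.Sims

variable {G : Type*} [Group G]

/-- `P` with Sylow 2-subgroup `T` of prime index `q ≠ 2`, `|P : O₂(P)| = 2q`, characteristic 2,
`Ω₁(Z(T))` not central in `P`. -/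
structure ParQ (q : ℕ) (P T : Subgroup G) : Prop where
  hq : q.Prime
  hq2 : q ≠ 2
  hTP : T ≤ P
  hT2 : IsPGroup 2 T
  h3 : T.relIndex P = q
  h6 : (pCoreOf 2 P).relIndex P = 2 * q
  hC : P ⊓ centralizer (pCoreOf 2 P : Set G) ≤ pCoreOf 2 P
  hZ : ¬ P ≤ centralizer (omegaCenterOf T : Set G)

theorem ParQ.toPar {P T : Subgroup G} (h : ParQ 3 P T) : Par P T :=
  ⟨h.hTP, h.hT2, h.h3, h.h6, h.hC, h.hZ⟩

namespace ParQ

variable {q : ℕ} {P T : Subgroup G} [Finite ↥P]

theorem Q_le_T (h : ParQ q P T) : pCoreOf 2 P ≤ T := by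
  set Q := pCoreOf 2 P with hQ
  have hn : T ≤ normalizer (Q : Set G) := h.hTP.trans (le_normalizer_pCoreOf P)
  have hp : IsPGroup 2 (T ⊔ Q : Subgroup G) :=
    IsPGroup.to_sup_of_normal_right' h.hT2 (pCoreOf_isPGroup P) hn
  have hle : T ⊔ Q ≤ P := sup_le h.hTP (pCoreOf_le P)
  have hm := relIndex_mul_relIndex T (T ⊔ Q) P le_sup_left hle
  rw [h.h3] at hm
  have h1 : T.relIndex (T ⊔ Q) ∣ q := Dvd.intro _ hm
  obtain ⟨k, hk⟩ : ∃ k, T.relIndex (T ⊔ Q) = 2 ^ k := by
    have : Finite ↥(T ⊔ Q) := Finite.of_injective _ (inclusion_injective hle)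
    exact IsPGroup.index hp (T.subgroupOf (T ⊔ Q))
  have h2 : T.relIndex (T ⊔ Q) = 1 := by
    rcases (Nat.dvd_prime h.hq).1 h1 with h3 | h3
    · exact h3
    · exfalso
      rw [hk] at h3
      rcases k with _ | k
      · rw [pow_zero] at h3
        exact h.hq.one_lt.ne h3
      · have h4 : 2 ∣ q := by rw [← h3, pow_succ]; exact Dvd.intro_left _ rfl
        exact h.hq2 ((Nat.prime_dvd_prime_iff_eq Nat.prime_two h.hq).1 h4).symm
  exact le_sup_right.trans (relIndex_eq_one.1 h2)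

theorem relIndex_Q_T (h : ParQ q P T) : (pCoreOf 2 P).relIndex T = 2 := by
  have hm := relIndex_mul_relIndex (pCoreOf 2 P) T P h.Q_le_T h.hTP
  rw [h.h3, h.h6] at hm
  exact Nat.eq_of_mul_eq_mul_right h.hq.pos hm

theorem Q_lt_T (h : ParQ q P T) : pCoreOf 2 P < T := by
  refine lt_of_le_of_ne h.Q_le_T ?_
  intro he
  have := h.relIndex_Q_T
  rw [he, relIndex_self] at this
  omega

theorem eq_P_of_lt (h : ParQ q P T) {H : Subgroup G} (h1 : T < H) (h2 : H ≤ P) : H = P :=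
  eq_of_lt_of_le_prime h.hq h1 h2 h.h3

theorem eq_T_of_lt (h : ParQ q P T) {H : Subgroup G} (h1 : pCoreOf 2 P < H) (h2 : H ≤ T) : H = T :=
  eq_of_lt_of_le_prime Nat.prime_two h1 h2 h.relIndex_Q_T

theorem sup_zpowers_eq_P (h : ParQ q P T) {x : G} (hx : x ∈ P) (hxT : x ∉ T) : T ⊔ zpowers x = P := by
  apply h.eq_P_of_lt
  · exact lt_of_le_of_ne le_sup_left (fun he => hxT (he ▸ mem_sup_right (mem_zpowers x)))
  · exact sup_le h.hTP (by rw [zpowers_le]; exact hx)

theorem sup_zpowers_eq_T (h : ParQ q P T) {x : G} (hx : x ∈ T) (hxQ : x ∉ pCoreOf 2 P) :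
    pCoreOf 2 P ⊔ zpowers x = T := by
  apply h.eq_T_of_lt
  · exact lt_of_le_of_ne le_sup_left (fun he => hxQ (he ▸ mem_sup_right (mem_zpowers x)))
  · exact sup_le h.Q_le_T (by rw [zpowers_le]; exact hx)

theorem normalizer_inf (h : ParQ q P T) : P ⊓ normalizer (T : Set G) = T := by
  by_contra hne
  have h1 : T < P ⊓ normalizer (T : Set G) :=
    lt_of_le_of_ne (le_inf h.hTP le_normalizer) (fun he => hne he.symm)
  have h2 := h.eq_P_of_lt h1 inf_le_left
  have h3 : P ≤ normalizer (T : Set G) := by rw [← h2]; exact inf_le_right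
  have h4 : T ≤ pCoreOf 2 P := le_pCoreOf h.hTP h3 h.hT2
  exact absurd h4 (not_le_of_gt h.Q_lt_T)

theorem cj_Q (h : ParQ q P T) {p : G} (hp : p ∈ P) : cj p (pCoreOf 2 P) = pCoreOf 2 P :=
  cj_eq_self_of_mem_normalizer (le_normalizer_pCoreOf P hp)

theorem inf_cj (h : ParQ q P T) {p : G} (hp : p ∈ P) (hpT : p ∉ T) : T ⊓ cj p T = pCoreOf 2 P := by
  have h1 : pCoreOf 2 P ≤ T ⊓ cj p T := by
    apply le_inf h.Q_le_T
    rw [← h.cj_Q hp]
    exact cj_mono h.Q_le_T
  by_contra hne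
  have h2 : pCoreOf 2 P < T ⊓ cj p T := lt_of_le_of_ne h1 (fun he => hne he.symm)
  have h3 := h.eq_T_of_lt h2 inf_le_left
  have h4 : T ≤ cj p T := by
    have h40 : T ⊓ cj p T ≤ cj p T := inf_le_right
    rwa [h3] at h40
  have : Finite ↥T := Finite.of_injective _ (inclusion_injective h.hTP)
  have h5 : cj p T = T := cj_eq_of_ge' h4
  have h6 : p ∈ P ⊓ normalizer (T : Set G) := ⟨hp, mem_normalizer_of_cj_eq h5⟩
  rw [h.normalizer_inf] at h6
  exact hpT h6

/-- `Ω₁(Z(T)) ≤ Z(Q)`. -/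
theorem omega_le (h : ParQ q P T) :
    omegaCenterOf T ≤ pCoreOf 2 P ⊓ centralizer (pCoreOf 2 P : Set G) := by
  intro x hx
  have h1 := omegaCenterOf_le T hx
  have h2 : x ∈ centralizer (pCoreOf 2 P : Set G) := centralizer_le h.Q_le_T h1.2
  exact ⟨h.hC ⟨h.hTP h1.1, h2⟩, h2⟩

theorem cj_omega_le (h : ParQ q P T) {p : G} (hp : p ∈ P) :
    cj p (omegaCenterOf T) ≤ pCoreOf 2 P ⊓ centralizer (pCoreOf 2 P : Set G) := by
  have h1 := cj_mono (g := p) h.omega_le
  rwa [cj_inf, cj_centralizer, h.cj_Q hp] at h1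

theorem zc_le (h : ParQ q P T) : zc P T ≤ pCoreOf 2 P ⊓ centralizer (pCoreOf 2 P : Set G) := by
  unfold zc
  apply iSup_le
  intro p
  exact h.cj_omega_le p.2

theorem zc_le_Q (h : ParQ q P T) : zc P T ≤ pCoreOf 2 P := h.zc_le.trans inf_le_left

theorem zc_le_T (h : ParQ q P T) : zc P T ≤ T := h.zc_le_Q.trans h.Q_le_T

theorem omega_le_zc : omegaCenterOf T ≤ zc P T := by
  unfold zc
  have := le_iSup (fun p : P => cj (p : G) (omegaCenterOf T)) 1
  simpa using this

theorem comm_of_mem_zc (h : ParQ q P T) {z q : G} (hz : z ∈ zc P T) (hq : q ∈ pCoreOf 2 P) :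
    q * z = z * q :=
  (mem_centralizer_iff.1 (h.zc_le hz).2) q hq

theorem sq_of_mem_zc (h : ParQ q P T) {z : G} (hz : z ∈ zc P T) : z * z = 1 := by
  unfold zc at hz
  have hle := h.zc_le
  induction hz using iSup_induction' with
  | hp p x hx =>
    obtain ⟨y, hy, rfl⟩ := hx
    have := sq_of_mem_omegaCenterOf hy
    rw [← map_mul, this, map_one]
  | h1 => simp
  | hmul a b ha hb iha ihb =>
    have ha' := hle ha
    have hb' := hle hb
    have hc : b * a = a * b := (mem_centralizer_iff.1 ha'.2) b hb'.1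
    calc a * b * (a * b) = a * (b * a) * b := by group
      _ = a * (a * b) * b := by rw [hc]
      _ = (a * a) * (b * b) := by group
      _ = 1 := by rw [iha, ihb, one_mul]

theorem cj_zc {q : G} (hq : q ∈ P) : cj q (zc P T) = zc P T := by
  have key : ∀ q ∈ P, cj q (zc P T) ≤ zc P T := by
    intro q hq
    unfold zc
    rw [cj_iSup]
    apply iSup_le
    intro p
    rw [← cj_mul]
    exact le_iSup (fun p : P => cj (p : G) (omegaCenterOf T)) ⟨q * p, P.mul_mem hq p.2⟩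
  apply le_antisymm (key q hq)
  have h1 := key q⁻¹ (P.inv_mem hq)
  rwa [le_cj_iff]

theorem le_normalizer_zc : P ≤ normalizer (zc P T : Set G) :=
  fun _ hq => mem_normalizer_of_cj_eq (cj_zc hq)

/-- `C_P(Z) = Q`. -/
theorem centralizer_zc (h : ParQ q P T) : P ⊓ centralizer (zc P T : Set G) = pCoreOf 2 P := by
  set C := P ⊓ centralizer (zc P T : Set G) with hC
  have hQC : pCoreOf 2 P ≤ C := by
    apply le_inf (pCoreOf_le P)
    rw [le_centralizer_iff]
    exact h.zc_le.trans inf_le_right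
  have hCn : P ≤ normalizer (C : Set G) := by
    intro p hp
    apply mem_normalizer_of_cj_eq
    rw [hC, cj_inf, cj_centralizer, cj_zc hp, cj_eq_self_of_mem hp]
  by_contra hne
  have hCT : ¬ C ≤ T := by
    intro hCT
    have : C ≤ pCoreOf 2 P := le_pCoreOf inf_le_left hCn (h.hT2.to_le hCT)
    exact hne (le_antisymm this hQC)
  have h1 : T < T ⊔ C := lt_of_le_of_ne le_sup_left (fun he => hCT (he ▸ le_sup_right))
  have h2 := h.eq_P_of_lt h1 (sup_le h.hTP inf_le_left)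
  apply h.hZ
  rw [← h2]
  apply sup_le
  · rw [le_centralizer_iff]
    exact (omegaCenterOf_le T).trans inf_le_right
  · exact inf_le_right.trans (centralizer_le omega_le_zc)

/-- `C_Z(x) = Ω₁(Z(T))` for `x ∈ T \ Q`. -/
theorem zc_inf_centralizer (h : ParQ q P T) {x : G} (hx : x ∈ T) (hxQ : x ∉ pCoreOf 2 P) :
    zc P T ⊓ centralizer {x} = omegaCenterOf T := by
  apply le_antisymm
  · rintro z ⟨hz, hzx⟩
    apply mem_omegaCenterOf (h.zc_le_T hz) _ (h.sq_of_mem_zc hz)
    have h1 : T ≤ centralizer {z} := by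
      rw [← h.sup_zpowers_eq_T hx hxQ]
      apply sup_le
      · intro q hq
        rw [mem_centralizer_singleton_iff]
        exact h.comm_of_mem_zc hz hq
      · rw [zpowers_le, mem_centralizer_singleton_iff]
        exact (mem_centralizer_singleton_iff.1 hzx).symm
    rw [mem_centralizer_iff]
    intro t ht
    exact (mem_centralizer_singleton_iff.1 (h1 ht))
  · apply le_inf omega_le_zc
    intro z hz
    rw [mem_centralizer_singleton_iff]
    exact ((mem_centralizer_iff.1 (omegaCenterOf_le T hz).2) x hx).symm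

/-- index 2: the product of two elements of `T \ Q` lies in `Q`. -/
theorem i2 (h : ParQ q P T) {x y : G} (hx : x ∈ T) (hy : y ∈ T) (hxQ : x ∉ pCoreOf 2 P)
    (hyQ : y ∉ pCoreOf 2 P) : x * y ∈ pCoreOf 2 P := by
  have h2 : ((pCoreOf 2 P).subgroupOf T).index = 2 := h.relIndex_Q_T
  have := (mul_mem_iff_of_index_two h2 (a := (⟨x, hx⟩ : T)) (b := ⟨y, hy⟩)).2
    (by simp only [mem_subgroupOf]; tauto)
  simpa [mem_subgroupOf] using this

end ParQ

end Cfsg.Agent.Lib.Helper55.Sims
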