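import Cfsg.Agent.Lib.Helper55.Sims.PQ

/-! two conjugate transvections `t`, `s` on `V = ⟨Z^P⟩` with centres `c`, `d`. -/

set_option autoImplicit false
open Cfsg Subgroup Cfsg.Agent.Lib.Helper47 Cfsg.Agent.Lib.Helper32.KSLocal

namespace Cfsg.Agent.Lib.Helper55.Sims

variable {G : Type*} [Group G]

theorem Q3a_aux1 {u q : G} (h : u * q = q * u) : q * (u * u) = u * u * q := by
  calc q * (u * u) = (q * u) * u := by rw [mul_assoc]
    _ = (u * q) * u := by rw [h]
    _ = u * (q * u) := by rw [mul_assoc]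
    _ = u * (u * q) := by rw [h]
    _ = u * u * q := by rw [mul_assoc]

theorem Q3a_aux2 {u q c : G} (h : u * q = q * c * u) (hc : u * c = c * u) (hc2 : c * c = 1) :
    q * (u * u) = u * u * q := by
  symm
  calc u * u * q = u * (u * q) := by rw [mul_assoc]
    _ = u * (q * c * u) := by rw [h]
    _ = (u * q) * c * u := by simp only [mul_assoc]
    _ = q * c * u * c * u := by rw [h]
    _ = q * c * (u * c) * u := by simp only [mul_assoc]
    _ = q * (c * c) * u * u := by rw [hc]; simp only [mul_assoc]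
    _ = q * (u * u) := by rw [hc2, mul_one, mul_assoc]

namespace ParQ

variable {q : ℕ} {P T : Subgroup G} [Finite ↥P]

theorem Q3a_conj_mem_Q (h : ParQ q P T) {p x : G} (hp : p ∈ P) (hx : x ∈ pCoreOf 2 P) :
    p * x * p⁻¹ ∈ pCoreOf 2 P := by
  have := conj_mem_cj (g := p) hx
  rwa [h.cj_Q hp] at this

theorem Q3a_conj_mem_V {p x : G} (hp : p ∈ P) (hx : x ∈ zc P T) : p * x * p⁻¹ ∈ zc P T := by
  have := conj_mem_cj (g := p) hx
  rwa [ParQ.cj_zc hp] at this

/-- if `s ∈ P` is an involution with `(t s)² ∈ Q` then `s ∈ T`. -/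
theorem Q3a_mem_T_of_sq (h : ParQ q P T) {t s : G} (ht : t ∈ T) (htQ : t ∉ pCoreOf 2 P)
    (ht2 : t * t = 1) (hs : s ∈ P) (hs2 : s * s = 1) (hu : t * s * (t * s) ∈ pCoreOf 2 P) :
    s ∈ T := by
  have hsi : s⁻¹ = s := inv_eq_of_mul_eq_one_right hs2
  have h1 : cj s T ≤ T := by
    conv_lhs => rw [← h.sup_zpowers_eq_T ht htQ]
    rw [show cj s (pCoreOf 2 P ⊔ zpowers t) = cj s (pCoreOf 2 P) ⊔ cj s (zpowers t) from
      Subgroup.map_sup _ _ _]
    apply sup_le
    · have := h.cj_Q hs
      rw [this]
      exact h.Q_le_T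
    · rw [show cj s (zpowers t) = zpowers ((MulAut.conj s).toMonoidHom t) from
        MonoidHom.map_zpowers _ _, zpowers_le]
      show s * t * s⁻¹ ∈ T
      rw [hsi]
      have h2 : s * t * s = t * (t * s * (t * s)) := by
        calc s * t * s = (t * t) * s * t * s := by rw [ht2, one_mul]
          _ = t * (t * s * (t * s)) := by group
      rw [h2]
      exact T.mul_mem ht (h.Q_le_T hu)
  have hfT : Finite ↥T := Finite.of_injective _ (inclusion_injective h.hTP)
  have h2 : s ∈ P ⊓ normalizer (T : Set G) := ⟨hs, mem_normalizer_of_cj_eq (cj_eq_of_le' h1)⟩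
  rwa [h.normalizer_inf] at h2

/-- an element commuting with `Q`, `t ∈ T \ Q` and `s ∈ P \ T` is central in `P`. -/
theorem Q3a_central (h : ParQ q P T) {t s z : G} (ht : t ∈ T) (htQ : t ∉ pCoreOf 2 P)
    (hs : s ∈ P) (hsT : s ∉ T) (hQ : ∀ x ∈ pCoreOf 2 P, x * z = z * x) (htz : t * z = z * t)
    (hsz : s * z = z * s) : ∀ p ∈ P, p * z = z * p := by
  have h1 : P ≤ centralizer {z} := by
    rw [← h.sup_zpowers_eq_P hs hsT, ← h.sup_zpowers_eq_T ht htQ]
    apply sup_le
    · apply sup_le
      · intro x hx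
        rw [mem_centralizer_singleton_iff]
        exact hQ x hx
      · rw [zpowers_le, mem_centralizer_singleton_iff]
        exact htz
    · rw [zpowers_le, mem_centralizer_singleton_iff]
      exact hsz
  intro p hp
  exact mem_centralizer_singleton_iff.1 (h1 hp)

/-- two transvections with the same centre, central in `P`: impossible unless `s ∈ T`. -/
theorem Q3a_same_centre (h : ParQ q P T) {t s c : G} (ht : t ∈ T) (htQ : t ∉ pCoreOf 2 P)
    (ht2 : t * t = 1) (hsP : s ∈ P) (hs2 : s * s = 1) (hc2 : c * c = 1)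
    (hcc : ∀ p ∈ P, p * c = c * p)
    (At0 : ∀ v ∈ zc P T, t * v * t = v ∨ t * v * t = v * c)
    (As0 : ∀ v ∈ zc P T, s * v * s = v ∨ s * v * s = v * c) : s ∈ T := by
  have htP : t ∈ P := h.hTP ht
  have At : ∀ v ∈ zc P T, t * v = v * t ∨ t * v = v * c * t := by
    intro v hv
    rcases At0 v hv with h1 | h1
    · left
      calc t * v = t * v * t * t := by rw [mul_assoc (t * v), ht2, mul_one]
        _ = v * t := by rw [h1]
    · right
      calc t * v = t * v * t * t := by rw [mul_assoc (t * v), ht2, mul_one]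
        _ = v * c * t := by rw [h1]
  have As : ∀ v ∈ zc P T, s * v = v * s ∨ s * v = v * c * s := by
    intro v hv
    rcases As0 v hv with h1 | h1
    · left
      calc s * v = s * v * s * s := by rw [mul_assoc (s * v), hs2, mul_one]
        _ = v * s := by rw [h1]
    · right
      calc s * v = s * v * s * s := by rw [mul_assoc (s * v), hs2, mul_one]
        _ = v * c * s := by rw [h1]
  have Au : ∀ v ∈ zc P T, (t * s) * v = v * (t * s) ∨ (t * s) * v = v * c * (t * s) := by
    intro v hv
    rcases As v hv with h1 | h1 <;> rcases At v hv with h2 | h2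
    · left
      calc t * s * v = t * (s * v) := by group
        _ = (t * v) * s := by rw [h1]; group
        _ = v * (t * s) := by rw [h2]; group
    · right
      calc t * s * v = t * (s * v) := by group
        _ = (t * v) * s := by rw [h1]; group
        _ = v * c * (t * s) := by rw [h2]; group
    · right
      calc t * s * v = t * (s * v) := by group
        _ = (t * v) * c * s := by rw [h1]; group
        _ = v * (t * c) * s := by rw [h2]; group
        _ = v * c * (t * s) := by rw [hcc t htP]; group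
    · left
      calc t * s * v = t * (s * v) := by group
        _ = (t * v) * c * s := by rw [h1]; group
        _ = v * c * (t * c) * s := by rw [h2]; group
        _ = v * (c * c) * t * s := by rw [hcc t htP]; group
        _ = v * (t * s) := by rw [hc2]; group
  have huP : t * s ∈ P := P.mul_mem htP hsP
  have hcen : t * s * (t * s) ∈ P ⊓ centralizer (zc P T : Set G) := by
    refine ⟨P.mul_mem huP huP, ?_⟩
    show t * s * (t * s) ∈ centralizer (zc P T : Set G)
    rw [mem_centralizer_iff]
    intro v hv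
    rcases Au v hv with h1 | h1
    · exact Q3a_aux1 h1
    · exact Q3a_aux2 h1 (hcc _ huP) hc2
  rw [h.centralizer_zc] at hcen
  exact h.Q3a_mem_T_of_sq ht htQ ht2 hsP hs2 hcen

end ParQ

theorem ParQ.exists_pair {q : ℕ} {P T : Subgroup G} [Finite ↥P] (h : ParQ q P T) {t : G}
    (ht : t ∈ T) (htQ : t ∉ pCoreOf 2 P) (ht2 : t * t = 1)
    (htr : ∀ v ∈ zc P T, ∀ w ∈ zc P T,
      t * v ≠ v * t → t * w ≠ w * t → t * (v * w) = (v * w) * t) :
    ∃ s c d : G, s ∈ P ∧ s * s = 1 ∧ t * s ∉ pCoreOf 2 P ∧ c ∈ zc P T ∧ d ∈ zc P T ∧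
      (∀ v ∈ zc P T, t * v * t = v ∨ t * v * t = v * c) ∧
      (∀ v ∈ zc P T, s * v * s = v ∨ s * v * s = v * d) ∧
      t * c * t = c ∧ s * d * s = d ∧ t * d * t = d * c ∧ s * c * s = c * d := by
  have htP : t ∈ P := h.hTP ht
  have hti : t⁻¹ = t := inv_eq_of_mul_eq_one_left ht2
  have hVc : ∀ x ∈ zc P T, ∀ y ∈ zc P T, x * y = y * x :=
    fun x hx y hy => h.comm_of_mem_zc hy (h.zc_le_Q hx)
  have hV2 : ∀ x ∈ zc P T, x * x = 1 := fun x hx => h.sq_of_mem_zc hx
  have hVQ : ∀ z ∈ zc P T, ∀ x ∈ pCoreOf 2 P, x * z = z * x :=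
    fun z hz x hx => h.comm_of_mem_zc hz hx
  -- a vector moved by `t`
  obtain ⟨a, ha, hat⟩ : ∃ a ∈ zc P T, t * a ≠ a * t := by
    by_contra hcon
    push Not at hcon
    apply htQ
    rw [← h.centralizer_zc]
    refine ⟨htP, ?_⟩
    show t ∈ centralizer (zc P T : Set G)
    rw [mem_centralizer_iff]
    intro v hv
    exact (hcon v hv).symm
  have hb : t * a * t ∈ zc P T := by
    have := ParQ.Q3a_conj_mem_V (T := T) htP ha
    rwa [hti] at this
  set c := a * (t * a * t) with hcdef
  have hc : c ∈ zc P T := mul_mem ha hb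
  have hc2 : c * c = 1 := hV2 c hc
  have ha2 : a * a = 1 := hV2 a ha
  have htc : t * c * t = c := by
    calc t * (a * (t * a * t)) * t = (t * a * t) * a * (t * t) := by simp only [mul_assoc]
      _ = (t * a * t) * a := by rw [ht2, mul_one]
      _ = a * (t * a * t) := hVc _ hb _ ha
  have hc1 : c ≠ 1 := by
    intro hc1
    apply hat
    have e1 : t * a * t = a := by
      have : a * (t * a * t) = a * a := by rw [ha2]; exact hc1
      exact mul_left_cancel this
    calc t * a = t * a * (t * t) := by rw [ht2, mul_one]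
      _ = (t * a * t) * t := by simp only [mul_assoc]
      _ = a * t := by rw [e1]
  have At : ∀ v ∈ zc P T, t * v * t = v ∨ t * v * t = v * c := by
    intro v hv
    by_cases hvt : t * v = v * t
    · left
      rw [hvt, mul_assoc, ht2, mul_one]
    · right
      have e := htr v hv a ha hvt hat
      calc t * v * t = t * v * (a * a) * t := by rw [ha2, mul_one]
        _ = (t * (v * a)) * a * t := by simp only [mul_assoc]
        _ = (v * a * t) * a * t := by rw [e]
        _ = v * (a * (t * a * t)) := by simp only [mul_assoc]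
  obtain ⟨g, hg, hgT⟩ : ∃ g ∈ P, g ∉ T := by
    by_contra hcon
    push Not at hcon
    have h1 : T.relIndex P = 1 := relIndex_eq_one.2 hcon
    rw [h.h3] at h1
    exact h.hq.one_lt.ne' h1
  set s := g * t * g⁻¹ with hsdef
  set d := g * c * g⁻¹ with hddef
  have hsP : s ∈ P := P.mul_mem (P.mul_mem hg htP) (P.inv_mem hg)
  have hs2 : s * s = 1 := by
    calc s * s = g * (t * t) * g⁻¹ := by rw [hsdef]; group
      _ = 1 := by rw [ht2]; group
  have hd : d ∈ zc P T := ParQ.Q3a_conj_mem_V hg hc
  have hsT : s ∉ T := by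
    intro hsT
    have h1 : s ∈ T ⊓ cj g T := ⟨hsT, conj_mem_cj ht⟩
    rw [h.inf_cj hg hgT] at h1
    have h2 := h.Q3a_conj_mem_Q (P.inv_mem hg) h1
    apply htQ
    have h3 : g⁻¹ * s * g⁻¹⁻¹ = t := by rw [hsdef]; group
    rwa [h3] at h2
  have htsQ : t * s ∉ pCoreOf 2 P := by
    intro hts
    apply hsT
    have : s = t * (t * s) := by rw [← mul_assoc, ht2, one_mul]
    rw [this]
    exact T.mul_mem ht (h.Q_le_T hts)
  have As : ∀ v ∈ zc P T, s * v * s = v ∨ s * v * s = v * d := by
    intro v hv
    have hv' : g⁻¹ * v * g ∈ zc P T := by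
      have := ParQ.Q3a_conj_mem_V (T := T) (P.inv_mem hg) hv
      rwa [inv_inv] at this
    have e0 : s * v * s = g * (t * (g⁻¹ * v * g) * t) * g⁻¹ := by rw [hsdef]; group
    rcases At _ hv' with h1 | h1
    · left
      rw [e0, h1]; group
    · right
      rw [e0, h1, hddef]; group
  have hsd : s * d * s = d := by
    calc s * d * s = g * (t * c * t) * g⁻¹ := by rw [hsdef, hddef]; group
      _ = d := by rw [htc]
  have comm_of : ∀ {x z : G}, x * x = 1 → x * z * x = z → x * z = z * x := by
    intro x z hx hz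
    calc x * z = x * z * (x * x) := by rw [hx, mul_one]
      _ = (x * z * x) * x := by simp only [mul_assoc]
      _ = z * x := by rw [hz]
  have htd : t * d * t = d * c := by
    rcases At d hd with h1 | h1
    · exfalso
      have hdc := h.Q3a_central ht htQ hsP hsT (hVQ d hd) (comm_of ht2 h1) (comm_of hs2 hsd)
      have hcd : c = d := by
        have e1 : c = g⁻¹ * d * g := by rw [hddef]; group
        rw [e1, mul_assoc, ← hdc g hg]; group
      apply hsT
      refine h.Q3a_same_centre ht htQ ht2 hsP hs2 hc2 (by rw [hcd]; exact hdc) At ?_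
      rw [hcd]; exact As
    · exact h1
  have hsc : s * c * s = c * d := by
    rcases As c hc with h1 | h1
    · exfalso
      have hcc := h.Q3a_central ht htQ hsP hsT (hVQ c hc) (comm_of ht2 htc) (comm_of hs2 h1)
      have hdc : d = c := by
        rw [hddef, hcc g hg]; group
      rw [hdc, htc, hc2] at htd
      exact hc1 htd
    · exact h1
  exact ⟨s, c, d, hsP, hs2, htsQ, hc, hd, At, As, htc, hsd, htd, hsc⟩

end Cfsg.Agent.Lib.Helper55.Sims
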