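import Cfsg.Agent.Lib.Helper55.Sims.PQ

/-! `(t s)³` centralises `V`, hence `q = 3`. -/

set_option autoImplicit false
open Cfsg Subgroup Cfsg.Agent.Lib.Helper47 Cfsg.Agent.Lib.Helper32.KSLocal

namespace Cfsg.Agent.Lib.Helper55.Sims

variable {G : Type*} [Group G]

theorem ParQ.eq_three_of_pair {q : ℕ} {P T : Subgroup G} [Finite ↥P] (h : ParQ q P T)
    {t s c d : G} (htP : t ∈ P) (ht2 : t * t = 1) (hs : s ∈ P) (hs2 : s * s = 1)
    (hu : t * s ∉ pCoreOf 2 P) (hc : c ∈ zc P T) (hd : d ∈ zc P T)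
    (At : ∀ v ∈ zc P T, t * v * t = v ∨ t * v * t = v * c)
    (As : ∀ v ∈ zc P T, s * v * s = v ∨ s * v * s = v * d)
    (h1 : t * c * t = c) (h2 : s * d * s = d) (h3 : t * d * t = d * c) (h4 : s * c * s = c * d) :
    q = 3 := by
  have hti : t⁻¹ = t := inv_eq_of_mul_eq_one_left ht2
  have hsi : s⁻¹ = s := inv_eq_of_mul_eq_one_left hs2
  have hcc : c * c = 1 := h.sq_of_mem_zc hc
  have hdd : d * d = 1 := h.sq_of_mem_zc hd
  have hcd : c * d = d * c := (h.comm_of_mem_zc hc (h.zc_le_Q hd)).symm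
  -- conjugation by `t`
  have tmul : ∀ a b : G, t * (a * b) * t = (t * a * t) * (t * b * t) := by
    intro a b
    calc t * (a * b) * t = t * a * 1 * b * t := by rw [mul_one]; simp only [mul_assoc]
      _ = t * a * (t * t) * b * t := by rw [ht2]
      _ = _ := by simp only [mul_assoc]
  let φ : MulAut G := MulAut.conj (t * s)
  have hφ : ∀ v, φ v = t * (s * v * s) * t := by
    intro v
    change t * s * v * (t * s)⁻¹ = _
    rw [mul_inv_rev, hsi, hti]
    simp only [mul_assoc]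
  have φc : φ c = d := by
    rw [hφ, h4, tmul, h1, h3, ← mul_assoc, hcd, mul_assoc, hcc, mul_one]
  have φd : φ d = d * c := by rw [hφ, h2, h3]
  have φdc : φ (d * c) = c := by
    rw [map_mul, φd, φc, mul_assoc, hcd, ← mul_assoc, hdd, one_mul]
  have hn : ∀ v ∈ zc P T, ∃ n, (n = 1 ∨ n = c ∨ n = d * c ∨ n = d) ∧ φ v = v * n := by
    intro v hv
    rcases As v hv with e1 | e1
    · rcases At v hv with e2 | e2
      · exact ⟨1, Or.inl rfl, by rw [hφ, e1, e2, mul_one]⟩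
      · exact ⟨c, Or.inr (Or.inl rfl), by rw [hφ, e1, e2]⟩
    · rcases At v hv with e2 | e2
      · exact ⟨d * c, Or.inr (Or.inr (Or.inl rfl)), by rw [hφ, e1, tmul, e2, h3]⟩
      · refine ⟨d, Or.inr (Or.inr (Or.inr rfl)), ?_⟩
        rw [hφ, e1, tmul, e2, h3, mul_assoc, ← mul_assoc c d c, hcd, mul_assoc d c c, hcc, mul_one]
  have htriple : ∀ n, (n = 1 ∨ n = c ∨ n = d * c ∨ n = d) → n * φ n * φ (φ n) = 1 := by
    rintro n (rfl | rfl | rfl | rfl)
    · simp
    · rw [φc, φd, mul_assoc, ← mul_assoc d d n, hdd, one_mul, hcc]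
    · rw [φdc, φc, mul_assoc d c c, hcc, mul_one, hdd]
    · rw [φd, φdc, ← mul_assoc n n c, hdd, one_mul, hcc]
  have hfix : ∀ v ∈ zc P T, φ (φ (φ v)) = v := by
    intro v hv
    obtain ⟨n, hn1, hn2⟩ := hn v hv
    rw [hn2, map_mul, map_mul, hn2, map_mul, hn2, mul_assoc, mul_assoc, ← mul_assoc n,
      htriple n hn1, mul_one]
  have huP : t * s ∈ P := P.mul_mem htP hs
  have hu3 : (t * s) ^ 3 ∈ pCoreOf 2 P := by
    rw [← h.centralizer_zc]
    refine ⟨P.pow_mem huP 3, ?_⟩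
    change (t * s) ^ 3 ∈ centralizer (zc P T : Set G)
    rw [mem_centralizer_iff]
    intro v hv
    have e1 := hfix v hv
    have e2 : φ (φ (φ v)) = (t * s) ^ 3 * v * ((t * s) ^ 3)⁻¹ := by
      change t * s * (t * s * (t * s * v * (t * s)⁻¹) * (t * s)⁻¹) * (t * s)⁻¹ = _
      generalize t * s = u
      have e3 : u ^ 3 = u * u * u := by rw [pow_succ, pow_two]
      rw [e3, mul_inv_rev, mul_inv_rev]
      simp only [mul_assoc]
    rw [e2] at e1
    exact (mul_inv_eq_iff_eq_mul.1 e1).symm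
  have hnorm : (pCore 2 ↥P).Normal := Cfsg.Agent.Lib.Helper47.pCore_normal
  have hmem : ∀ x : ↥P, x ∈ pCore 2 ↥P ↔ (x : G) ∈ pCoreOf 2 P := by
    intro x
    rw [← pCoreOf_subgroupOf, mem_subgroupOf]
  let ub : ↥P ⧸ pCore 2 ↥P := QuotientGroup.mk (⟨t * s, huP⟩ : ↥P)
  have hub1 : ub ≠ 1 := by
    intro he
    rw [QuotientGroup.eq_one_iff, hmem] at he
    exact hu he
  have hub3 : ub ^ 3 = 1 := by
    change (QuotientGroup.mk (⟨t * s, huP⟩ : ↥P) : ↥P ⧸ pCore 2 ↥P) ^ 3 = 1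
    rw [← QuotientGroup.mk_pow, QuotientGroup.eq_one_iff, hmem]
    exact hu3
  have : Fact (Nat.Prime 3) := ⟨Nat.prime_three⟩
  have hord : orderOf ub = 3 := orderOf_eq_prime hub3 hub1
  have hcard : Nat.card (↥P ⧸ pCore 2 ↥P) = 2 * q := by
    have := h.h6
    unfold relIndex at this
    rw [pCoreOf_subgroupOf] at this
    exact this
  have hdvd : 3 ∣ 2 * q := by
    rw [← hcard, ← hord]
    exact orderOf_dvd_natCard ub
  have h3q : 3 ∣ q := (Nat.Coprime.dvd_mul_left (by decide : Nat.Coprime 3 2)).1 hdvd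
  exact ((Nat.prime_dvd_prime_iff_eq Nat.prime_three h.hq).1 h3q).symm

end Cfsg.Agent.Lib.Helper55.Sims
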