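import Cfsg.Agent.Lib.Helper55.Sims.PQ

/-! translation of the hypotheses of the row (Sims' theorem in local form) into `ParQ`. -/

set_option autoImplicit false
open Cfsg Subgroup Cfsg.Agent.Lib.Helper47 Cfsg.Agent.Lib.Helper32.KSLocal

namespace Cfsg.Agent.Lib.Helper55.Sims

theorem ROW_eq_of {m k j q : ℕ} (hm : ¬ 2 ∣ m) (hq : Nat.Coprime q 2)
    (h : 2 ^ k * m = 2 ^ j * (2 * q)) : m = q := by
  have hc : Nat.Coprime m 2 := by
    rw [Nat.coprime_comm]
    exact (Nat.Prime.coprime_iff_not_dvd Nat.prime_two).2 hm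
  have h1 : m ∣ 2 ^ (j + 1) * q := ⟨2 ^ k, by rw [pow_succ]; linarith⟩
  have h2 : m ∣ q := (Nat.Coprime.pow_right (j + 1) hc).dvd_of_dvd_mul_left h1
  have h3 : q ∣ 2 ^ k * m := ⟨2 ^ (j + 1), by rw [pow_succ]; linarith⟩
  have h4 : q ∣ m := (Nat.Coprime.pow_right k hq).dvd_of_dvd_mul_left h3
  exact Nat.dvd_antisymm h2 h4

theorem sylow_ne_bot_of_row {H : Type*} [Group H] [Finite H] (G : Subgroup H) (S : Sylow 2 ↥G)
    (q : ℕ) (hD : Nonempty (↥G ⧸ pCore 2 ↥G ≃* DihedralGroup q)) :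
    (S : Subgroup ↥G).map G.subtype ≠ ⊥ := by
  obtain ⟨e⟩ := hD
  have : Fact (Nat.Prime 2) := ⟨Nat.prime_two⟩
  have h1 : (pCore 2 ↥G).index = 2 * q := by
    rw [index, Nat.card_congr e.toEquiv, DihedralGroup.nat_card]
  have h2 : 2 ∣ Nat.card ↥G := by
    have := (pCore 2 ↥G).index_dvd_card
    rw [h1] at this
    exact (Dvd.intro _ rfl).trans this
  have h3 := S.ne_bot_of_dvd_card h2
  rw [Ne, map_eq_bot_iff_of_injective _ (subtype_injective G)]
  exact h3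

theorem parQ_of_row {H : Type*} [Group H] [Finite H] (G : Subgroup H)
    (hchar : centralizer (pCore 2 ↥G : Set ↥G) ≤ pCore 2 ↥G) (S : Sylow 2 ↥G) (q : ℕ)
    (hq : q.Prime) (hD : Nonempty (↥G ⧸ pCore 2 ↥G ≃* DihedralGroup q))
    (hZ : ¬ G ≤ centralizer (omegaCenterOf ((S : Subgroup ↥G).map G.subtype) : Set H)) :
    ParQ q G ((S : Subgroup ↥G).map G.subtype) := by
  obtain ⟨e⟩ := hD
  have : Fact (Nat.Prime 2) := ⟨Nat.prime_two⟩
  set T : Subgroup H := (S : Subgroup ↥G).map G.subtype with hT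
  have hTP : T ≤ G := map_subtype_le _
  have hS : T.subgroupOf G = (S : Subgroup ↥G) :=
    comap_map_eq_self_of_injective (subtype_injective G) _
  have hT2 : IsPGroup 2 T := S.isPGroup'.map _
  have h6 : (pCoreOf 2 G).relIndex G = 2 * q := by
    unfold relIndex
    rw [pCoreOf_subgroupOf, index, Nat.card_congr e.toEquiv, DihedralGroup.nat_card]
  have hodd : ¬ 2 ∣ T.relIndex G := by
    unfold relIndex
    rw [hS]
    exact S.not_dvd_index
  obtain ⟨k, hk⟩ := IsPGroup.iff_card.1 hT2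
  obtain ⟨j, hj⟩ := IsPGroup.iff_card.1 (pCoreOf_isPGroup (p := 2) G)
  have c1 : Nat.card T * T.relIndex G = Nat.card G := by
    rw [← relIndex_bot_left, ← relIndex_bot_left, relIndex_mul_relIndex ⊥ T G bot_le hTP]
  have c2 : Nat.card (pCoreOf 2 G) * (pCoreOf 2 G).relIndex G = Nat.card G := by
    rw [← relIndex_bot_left, ← relIndex_bot_left,
      relIndex_mul_relIndex ⊥ (pCoreOf 2 G) G bot_le (pCoreOf_le G)]
  have hmain : 2 ^ k * T.relIndex G = 2 ^ j * (2 * q) := by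
    rw [← hk, ← hj, c1, ← c2, h6]
  have hq2 : q ≠ 2 := by
    rintro rfl
    have hc : Nat.Coprime (T.relIndex G) 2 := by
      rw [Nat.coprime_comm]
      exact (Nat.Prime.coprime_iff_not_dvd Nat.prime_two).2 hodd
    have h1 : T.relIndex G ∣ 2 ^ (j + 2) := ⟨2 ^ k, by rw [pow_add]; linarith⟩
    have h2 : T.relIndex G = 1 := Nat.Coprime.eq_one_of_dvd (Nat.Coprime.pow_right (j + 2) hc) h1
    have h3 : G ≤ T := relIndex_eq_one.1 h2
    have h4 : G ≤ pCoreOf 2 G := le_pCoreOf le_rfl le_normalizer (hT2.to_le h3)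
    have h5 : (pCoreOf 2 G).relIndex G = 1 := relIndex_eq_one.2 h4
    omega
  have hqc : Nat.Coprime q 2 := (Nat.coprime_primes hq Nat.prime_two).2 hq2
  exact ⟨hq, hq2, hTP, hT2, ROW_eq_of hodd hqc hmain, h6, charP_iff.1 hchar, hZ⟩

end Cfsg.Agent.Lib.Helper55.Sims
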