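import Cfsg.Agent.Lib.Helper55.Sims.PQ

/-! Thompson factorization, step 1: some elementary abelian subgroup of `T` of largest order is not
contained in `Q = O₂(P)`. -/

set_option autoImplicit false
open Cfsg Subgroup Cfsg.Agent.Lib.Helper47 Cfsg.Agent.Lib.Helper32.KSLocal

namespace Cfsg.Agent.Lib.Helper55.Sims

variable {G : Type*} [Group G]

theorem exists_max_elem (T : Subgroup G) [Finite ↥T] :
    ∃ A : Subgroup G, A ≤ T ∧ (∀ a ∈ A, a * a = 1) ∧
      ∀ B : Subgroup G, B ≤ T → (∀ b ∈ B, b * b = 1) → Nat.card B ≤ Nat.card A := by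
  let 𝒮 : Set (Subgroup G) := {A | A ≤ T ∧ ∀ a ∈ A, a * a = 1}
  obtain ⟨A, ⟨hAT, hA2⟩, hmin⟩ :=
    WellFounded.has_min (measure (fun A : Subgroup G => Nat.card T - Nat.card A)).wf 𝒮
      ⟨⊥, bot_le, fun a ha => by rw [mem_bot.1 ha, one_mul]⟩
  refine ⟨A, hAT, hA2, fun B hBT hB2 => ?_⟩
  have h1 : ¬ (Nat.card T - Nat.card B < Nat.card T - Nat.card A) := hmin B ⟨hBT, hB2⟩
  have h2 : Nat.card B ≤ Nat.card T := Subgroup.card_le_of_le hBT
  have h3 : Nat.card A ≤ Nat.card T := Subgroup.card_le_of_le hAT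
  omega

theorem ParQ.exists_A {q : ℕ} {P T : Subgroup G} [Finite ↥P] (h : ParQ q P T) {x : G}
    (hx : cj x T = T)
    (hcore : ∀ N : Subgroup G, N ≤ T → P ≤ normalizer (N : Set G) → cj x N = N → N = ⊥) :
    ∃ A : Subgroup G, A ≤ T ∧ (∀ a ∈ A, a * a = 1) ∧ ¬ A ≤ pCoreOf 2 P ∧
      ∀ B : Subgroup G, B ≤ T → (∀ b ∈ B, b * b = 1) → Nat.card B ≤ Nat.card A := by
  have hfT : Finite ↥T := Finite.of_injective _ (inclusion_injective h.hTP)
  obtain ⟨A0, hA0T, hA02, hA0max⟩ := exists_max_elem T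
  by_contra hcon
  push Not at hcon
  let 𝒜 : Set (Subgroup G) :=
    {A | A ≤ T ∧ (∀ a ∈ A, a * a = 1) ∧ Nat.card A = Nat.card A0}
  have hQ : ∀ A ∈ 𝒜, A ≤ pCoreOf 2 P := by
    rintro A ⟨hAT, hA2, hAc⟩
    by_contra hAQ
    obtain ⟨B, hBT, hB2, hlt⟩ := hcon A hAT hA2 hAQ
    have := hA0max B hBT hB2
    omega
  let J : Subgroup G := ⨆ A : 𝒜, (A : Subgroup G)
  have hJQ : J ≤ pCoreOf 2 P := iSup_le (fun A => hQ A.1 A.2)
  have hJT : J ≤ T := hJQ.trans h.Q_le_T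
  have hsq : ∀ (g : G) (A : Subgroup G), (∀ a ∈ A, a * a = 1) → ∀ a ∈ cj g A, a * a = 1 := by
    rintro g A hA _ ⟨a, ha, rfl⟩
    rw [← map_mul, hA a ha, map_one]
  have hstep : ∀ g : G, (∀ A ∈ 𝒜, cj g A ≤ T) → cj g J ≤ J := by
    intro g hg
    rw [cj_iSup]
    apply iSup_le
    intro A
    exact le_iSup (fun A : 𝒜 => (A : Subgroup G))
      ⟨cj g A.1, hg A.1 A.2, hsq g A.1 A.2.2.1, by rw [card_cj]; exact A.2.2.2⟩
  have hP : P ≤ normalizer (J : Set G) := by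
    apply le_normalizer_of_cj_le
    intro g hg
    apply hstep
    intro A hA
    calc cj g A ≤ cj g (pCoreOf 2 P) := cj_mono (hQ A hA)
      _ = pCoreOf 2 P := h.cj_Q hg
      _ ≤ T := h.Q_le_T
  have hfJ : Finite ↥J := Finite.of_injective _ (inclusion_injective hJT)
  have hxJ : cj x J = J := by
    apply cj_eq_of_le'
    apply hstep
    intro A hA
    calc cj x A ≤ cj x T := cj_mono hA.1
      _ = T := hx
  have hJ : J = ⊥ := hcore J hJT hP hxJ
  have hA0 : A0 = ⊥ := by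
    have : A0 ≤ J := le_iSup (fun A : 𝒜 => (A : Subgroup G)) ⟨A0, hA0T, hA02, rfl⟩
    rw [hJ] at this
    exact le_bot_iff.1 this
  have hZT : omegaCenterOf T ≤ T := (omegaCenterOf_le T).trans inf_le_left
  have hZc := hA0max (omegaCenterOf T) hZT (fun b hb => sq_of_mem_omegaCenterOf hb)
  rw [hA0, Subgroup.card_bot] at hZc
  have hfZ : Finite ↥(omegaCenterOf T) := Finite.of_injective _ (inclusion_injective hZT)
  have hZ : omegaCenterOf T = ⊥ := Subgroup.eq_bot_of_card_le _ hZc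
  apply h.hZ
  intro p _
  rw [mem_centralizer_iff]
  intro z hz
  rw [hZ] at hz
  have : z = 1 := hz
  rw [this]; simp

end Cfsg.Agent.Lib.Helper55.Sims
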