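import Cfsg.Agent.Lib.Helper55.Sims.PQ
import Cfsg.Agent.Lib.Helper55.Ident.Defs
import Cfsg.Agent.Lib.Helper55.Ident.E2

/-! Thompson factorization, step 2: an offender of order two is a transvection on `V = ⟨Z^P⟩`. -/

set_option autoImplicit false
open Cfsg Subgroup Cfsg.Agent.Lib.Helper47 Cfsg.Agent.Lib.Helper32.KSLocal
open Cfsg.Agent.Lib.Helper55.Ident (ext2 mem_ext2 relIndex_two_of)

namespace Cfsg.Agent.Lib.Helper55.Sims

variable {G : Type*} [Group G]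

theorem TF2_le_ext2 {B : Subgroup G} {e : G} {he : e * e = 1} {hn : ∀ b ∈ B, e * b * e ∈ B} :
    B ≤ ext2 B e he hn := fun _ hb => Or.inl hb

/-- `|B ∪ B e| = 2 |B|` for `e ∉ B`. -/
theorem card_ext2 {B : Subgroup G} {e : G} {he : e * e = 1} {hn : ∀ b ∈ B, e * b * e ∈ B}
    (heB : e ∉ B) : Nat.card (ext2 B e he hn) = 2 * Nat.card B := by
  have h2 : B.relIndex (ext2 B e he hn) = 2 := by
    apply relIndex_two_of
    · exact ⟨e, Or.inr (by rw [he]; exact B.one_mem), heB⟩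
    · intro x hx y hy hxB hyB
      have hx' : x * e ∈ B := hx.resolve_left hxB
      have hy' : y * e ∈ B := hy.resolve_left hyB
      have : x * y = (x * e) * (e * (y * e) * e) := by
        calc x * y = x * 1 * y * 1 := by rw [mul_one, mul_one]
          _ = x * (e * e) * y * (e * e) := by rw [he]
          _ = (x * e) * (e * (y * e) * e) := by group
      rw [this]
      exact B.mul_mem hx' (hn _ hy')
  have h3 := relIndex_mul_relIndex ⊥ B (ext2 B e he hn) bot_le TF2_le_ext2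
  rw [relIndex_bot_left, relIndex_bot_left, h2] at h3
  omega

theorem TF2_ext2_sq {B : Subgroup G} {e : G} {he : e * e = 1} {hn : ∀ b ∈ B, e * b * e ∈ B}
    (hB : ∀ b ∈ B, b * b = 1) (hc : ∀ b ∈ B, b * e = e * b) :
    ∀ z ∈ ext2 B e he hn, z * z = 1 := by
  rintro z (hz | hz)
  · exact hB z hz
  · have e1 : z = (z * e) * e := by rw [mul_assoc, he, mul_one]
    have e2 := hc _ hz
    have e3 := hB _ hz
    calc z * z = ((z * e) * e) * ((z * e) * e) := by rw [← e1]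
      _ = (z * e) * (e * (z * e)) * e := by group
      _ = (z * e) * ((z * e) * e) * e := by rw [e2]
      _ = ((z * e) * (z * e)) * (e * e) := by group
      _ = 1 := by rw [e3, he, one_mul]

theorem TF2_ext2_le {B Q : Subgroup G} {e : G} {he : e * e = 1} {hn : ∀ b ∈ B, e * b * e ∈ B}
    (hBQ : B ≤ Q) (heQ : e ∈ Q) : ext2 B e he hn ≤ Q := by
  rintro z (hz | hz)
  · exact hBQ hz
  · have e1 : z = (z * e) * e := by rw [mul_assoc, he, mul_one]
    rw [e1]
    exact Q.mul_mem (hBQ hz) heQ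

theorem ParQ.transvection_of_A {q : ℕ} {P T : Subgroup G} [Finite ↥P] (h : ParQ q P T)
    {A : Subgroup G} (hAT : A ≤ T) (hA2 : ∀ a ∈ A, a * a = 1) (hAQ : ¬ A ≤ pCoreOf 2 P)
    (hmax : ∀ B : Subgroup G, B ≤ T → (∀ b ∈ B, b * b = 1) → Nat.card B ≤ Nat.card A) :
    ∃ t ∈ T, t ∉ pCoreOf 2 P ∧ t * t = 1 ∧ ∀ v ∈ zc P T, ∀ w ∈ zc P T,
      t * v ≠ v * t → t * w ≠ w * t → t * (v * w) = (v * w) * t := by
  obtain ⟨t, htA, htQ⟩ := SetLike.not_le_iff_exists.1 hAQ
  refine ⟨t, hAT htA, htQ, hA2 t htA, ?_⟩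
  intro v hv w hw hvt hwt
  have hvA : v ∉ A := fun hvA => hvt (comm_of_sq hA2 htA hvA)
  have hwA : w ∉ A := fun hwA => hwt (comm_of_sq hA2 htA hwA)
  by_contra hcon
  have hvwA : v * w ∉ A := fun hvwA => hcon (comm_of_sq hA2 htA hvwA)
  set Q := pCoreOf 2 P with hQ
  have hvQ : v ∈ Q := h.zc_le_Q hv
  have hwQ : w ∈ Q := h.zc_le_Q hw
  have hv2 : v * v = 1 := h.sq_of_mem_zc hv
  have hw2 : w * w = 1 := h.sq_of_mem_zc hw
  have hvc : ∀ b ∈ Q, b * v = v * b := fun b hb => h.comm_of_mem_zc hv hb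
  have hwc : ∀ b ∈ Q, b * w = w * b := fun b hb => h.comm_of_mem_zc hw hb
  let A0 : Subgroup G := A ⊓ Q
  have hA0 : A0.relIndex A = 2 := by
    apply relIndex_two_of
    · exact ⟨t, htA, fun ht => htQ ht.2⟩
    · intro x hx y hy hx0 hy0
      have hxQ : x ∉ Q := fun hxQ => hx0 ⟨hx, hxQ⟩
      have hyQ : y ∉ Q := fun hyQ => hy0 ⟨hy, hyQ⟩
      exact ⟨A.mul_mem hx hy, h.i2 (hAT hx) (hAT hy) hxQ hyQ⟩
  have hcA : Nat.card A = 2 * Nat.card A0 := by
    have h3 := relIndex_mul_relIndex ⊥ A0 A bot_le inf_le_left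
    rw [relIndex_bot_left, relIndex_bot_left, hA0] at h3
    omega
  have hn1 : ∀ b ∈ A0, v * b * v ∈ A0 := by
    intro b hb
    have : v * b * v = b := by rw [← hvc b hb.2, mul_assoc, hv2, mul_one]
    rw [this]; exact hb
  let B1 : Subgroup G := ext2 A0 v hv2 hn1
  have hB1Q : B1 ≤ Q := TF2_ext2_le inf_le_right hvQ
  have hn2 : ∀ b ∈ B1, w * b * w ∈ B1 := by
    intro b hb
    have : w * b * w = b := by rw [← hwc b (hB1Q hb), mul_assoc, hw2, mul_one]
    rw [this]; exact hb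
  let B2 : Subgroup G := ext2 B1 w hw2 hn2
  have hB2Q : B2 ≤ Q := TF2_ext2_le hB1Q hwQ
  have hvA0 : v ∉ A0 := fun hv0 => hvA hv0.1
  have hwB1 : w ∉ B1 := by
    rintro (hw0 | hw0)
    · exact hwA hw0.1
    · apply hvwA
      rw [← hvc w hwQ]
      exact hw0.1
  have c1 : Nat.card B1 = 2 * Nat.card A0 := card_ext2 hvA0
  have c2 : Nat.card B2 = 2 * Nat.card B1 := card_ext2 hwB1
  have s1 : ∀ z ∈ B1, z * z = 1 :=
    TF2_ext2_sq (fun b hb => hA2 b hb.1) (fun b hb => hvc b hb.2)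
  have s2 : ∀ z ∈ B2, z * z = 1 := TF2_ext2_sq s1 (fun b hb => hwc b (hB1Q hb))
  have h5 := hmax B2 (hB2Q.trans h.Q_le_T) s2
  have hfA : Finite ↥A := Finite.of_injective _ (inclusion_injective (hAT.trans h.hTP))
  have hpos : 0 < Nat.card A := Nat.card_pos
  omega

end Cfsg.Agent.Lib.Helper55.Sims
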